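import Mathlib
import Cfsg.Agent.Lib.Compute.Basic

/-! Products of 78 × 78 matrices over `ZMod 13` packed into one natural number, digit by digit
in base `2 ^ 16`; a row of the product is found by big-number arithmetic. -/

set_option autoImplicit false

namespace Cfsg.Agent.Lib.Fi22Rep

open Cfsg.Agent.Lib.Compute Finset

/-- The digit base. -/
abbrev X : ℕ := 65536

/-- Digit `d` of `N`. -/
def dig (N d : ℕ) : ℕ := Nat.land (Nat.shiftRight N (Nat.mul 16 d)) 65535

/-- The matrix entry stored in `N`. -/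
def ent (N i j : ℕ) : ℕ := dig N (Nat.add (Nat.mul 78 i) j)

/-- The mask of a row. -/
def rowMask : ℕ := Nat.sub (Nat.pow 2 1248) 1

/-- Row `i` of `N`, itself packed. -/
def rowOf (N i : ℕ) : ℕ := Nat.land (Nat.shiftRight N (Nat.mul 1248 i)) rowMask

/-- Sum below `n`, by a recursor. -/
noncomputable def sumB (f : ℕ → ℕ) (n : ℕ) : ℕ := Nat.rec 0 (fun k ih => Nat.add ih (f k)) n

theorem sumB_eq (f : ℕ → ℕ) (n : ℕ) : sumB f n = ∑ k ∈ range n, f k := by
  induction n with
  | zero => rfl
  | succ n ih =>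
    rw [sum_range_succ, ← ih]
    rfl

/-- Row `i` of the product, not reduced. -/
noncomputable def rowSum (A B i : ℕ) : ℕ := sumB (fun k => Nat.mul (ent A i k) (rowOf B k)) 78

/-- Reduce the digits modulo 13. -/
noncomputable def redRow (T : ℕ) : ℕ :=
  sumB (fun j => Nat.shiftLeft (Nat.mod (dig T j) 13) (Nat.mul 16 j)) 78

/-- The packed matrix product. -/
noncomputable def mmul (A B : ℕ) : ℕ :=
  sumB (fun i => Nat.shiftLeft (redRow (rowSum A B i)) (Nat.mul 1248 i)) 78

theorem dgen (Y : ℕ) (hY : 0 < Y) (n : ℕ) : ∀ (u : ℕ → ℕ) (d : ℕ), (∀ j < n, u j < Y) → d < n →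
    (∑ j ∈ range n, u j * Y ^ j) / Y ^ d % Y = u d := by
  induction n with
  | zero => intro u d _ h; omega
  | succ n ih =>
    intro u d hu hd
    have h0 : u 0 < Y := hu 0 (by omega)
    have hS : (∑ j ∈ range (n + 1), u j * Y ^ j) = Y * (∑ j ∈ range n, u (j + 1) * Y ^ j) + u 0 := by
      rw [sum_range_succ', mul_sum]
      simp only [pow_zero, mul_one]
      congr 1
      apply sum_congr rfl
      intro j _
      rw [pow_succ]
      ring
    rw [hS]
    cases d with
    | zero =>
      rw [pow_zero, Nat.div_one, Nat.mul_add_mod]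
      exact Nat.mod_eq_of_lt h0
    | succ d =>
      rw [pow_succ', ← Nat.div_div_eq_div_mul, Nat.mul_add_div hY, Nat.div_eq_of_lt h0, add_zero]
      exact ih (fun j => u (j + 1)) d (fun j hj => hu (j + 1) (by omega)) (by omega)

theorem dig_eq (N d : ℕ) : dig N d = N / X ^ d % X := by
  have h1 : Nat.land (Nat.shiftRight N (Nat.mul 16 d)) 65535 = (N >>> (16 * d)) &&& (2 ^ 16 - 1) := rfl
  unfold dig
  rw [h1, Nat.and_two_pow_sub_one_eq_mod, Nat.shiftRight_eq_div_pow, pow_mul]
  rfl

theorem two_pow_1248 : (2 : ℕ) ^ 1248 = X ^ 78 := by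
  have h : X = 2 ^ 16 := by norm_num
  rw [h, ← pow_mul]

theorem land_aux (N b i : ℕ) : Nat.land (Nat.shiftRight N (Nat.mul b i)) (Nat.sub (Nat.pow 2 b) 1) =
    (N >>> (b * i)) &&& (2 ^ b - 1) := rfl

theorem rowOf_eq (N i : ℕ) : rowOf N i = N / (X ^ 78) ^ i % X ^ 78 := by
  unfold rowOf rowMask
  rw [land_aux, Nat.and_two_pow_sub_one_eq_mod, Nat.shiftRight_eq_div_pow, pow_mul, two_pow_1248]

theorem ent_eq (N i j : ℕ) : ent N i j = N / (X ^ 78) ^ i / X ^ j % X := by
  have h : ent N i j = dig N (78 * i + j) := rfl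
  rw [h, dig_eq, pow_add, pow_mul, Nat.div_div_eq_div_mul]

theorem ent_eq' (N i j : ℕ) (hj : j < 78) : ent N i j = rowOf N i / X ^ j % X := by
  rw [ent_eq, rowOf_eq]
  have h : X ^ 78 = X ^ j * X ^ (78 - j) := by
    rw [← pow_add]
    congr 1
    omega
  rw [h, Nat.mod_mul_right_div_self, Nat.mod_mod_of_dvd _ (dvd_pow_self X (by omega))]

theorem mod_pow_expand (M n : ℕ) : M % X ^ n = ∑ j ∈ range n, (M / X ^ j % X) * X ^ j := by
  induction n with
  | zero => simp [Nat.mod_one]
  | succ n ih =>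
    rw [Nat.mod_pow_succ, sum_range_succ, ih]
    ring

theorem row_exp (N i : ℕ) : rowOf N i = ∑ j ∈ range 78, ent N i j * X ^ j := by
  rw [rowOf_eq, mod_pow_expand]
  apply sum_congr rfl
  intro j _
  rw [ent_eq]

theorem sum_lt_pow (n : ℕ) (u : ℕ → ℕ) (hu : ∀ j < n, u j < X) : (∑ j ∈ range n, u j * X ^ j) < X ^ n := by
  induction n with
  | zero => simp
  | succ n ih =>
    rw [sum_range_succ, pow_succ]
    have h1 := ih (fun j hj => hu j (by omega))
    have h2 : u n + 1 ≤ X := hu n (by omega)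
    have h3 : (u n + 1) * X ^ n ≤ X * X ^ n := Nat.mul_le_mul_right _ h2
    nlinarith

/-- All entries are below 13. -/
def Bdd (N : ℕ) : Prop := ∀ i j, i < 78 → j < 78 → ent N i j < 13

/-- The matrix stored in `N`. -/
noncomputable def Mat (N : ℕ) : Matrix (Fin 78) (Fin 78) (ZMod 13) := fun i j => ((ent N i j : ℕ) : ZMod 13)

theorem ent_mmul {A B : ℕ} (hA : Bdd A) (hB : Bdd B) (i j : ℕ) (hi : i < 78) (hj : j < 78) :
    ent (mmul A B) i j = (∑ k ∈ range 78, ent A i k * ent B k j) % 13 := by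
  -- the unreduced entries
  set U : ℕ → ℕ → ℕ := fun i j => ∑ k ∈ range 78, ent A i k * ent B k j with hU
  have hUb : ∀ i j, i < 78 → j < 78 → U i j < X := by
    intro i j hi hj
    have h1 : U i j ≤ (range 78).card • 144 := by
      apply sum_le_card_nsmul
      intro k hk
      have hk' : k < 78 := mem_range.1 hk
      have h2 := hA i k hi hk'
      have h3 := hB k j hk' hj
      have h4 : ent A i k * ent B k j ≤ 12 * 12 := Nat.mul_le_mul (by omega) (by omega)
      simpa using h4
    simp only [card_range, smul_eq_mul] at h1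
    have : (78 : ℕ) * 144 < X := by norm_num
    omega
  have hrow : ∀ i, rowSum A B i = ∑ j ∈ range 78, U i j * X ^ j := by
    intro i
    have h1 : rowSum A B i = ∑ k ∈ range 78, ent A i k * rowOf B k := sumB_eq _ _
    rw [h1]
    simp only [row_exp, hU, mul_sum, sum_mul]
    rw [sum_comm]
    apply sum_congr rfl
    intro j _
    apply sum_congr rfl
    intro k _
    ring
  have hdig : ∀ i j, i < 78 → j < 78 → dig (rowSum A B i) j = U i j := by
    intro i j hi hj
    rw [hrow, dig_eq]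
    exact dgen X (by norm_num) 78 (U i) j (fun j hj => hUb i j hi hj) hj
  have hred : ∀ i, i < 78 → redRow (rowSum A B i) = ∑ j ∈ range 78, (U i j % 13) * X ^ j := by
    intro i hi
    have h1 : redRow (rowSum A B i) = ∑ j ∈ range 78, ((dig (rowSum A B i) j % 13) * 2 ^ (16 * j)) := by
      unfold redRow
      rw [sumB_eq]
      apply sum_congr rfl
      intro j _
      show (dig (rowSum A B i) j % 13) <<< (16 * j) = _
      rw [Nat.shiftLeft_eq]
    rw [h1]
    apply sum_congr rfl
    intro j hj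
    rw [hdig i j hi (mem_range.1 hj), pow_mul]
    rfl
  have hmm : mmul A B = ∑ i ∈ range 78, (∑ j ∈ range 78, (U i j % 13) * X ^ j) * (X ^ 78) ^ i := by
    unfold mmul
    rw [sumB_eq]
    apply sum_congr rfl
    intro i hi
    show (redRow (rowSum A B i)) <<< (1248 * i) = _
    rw [Nat.shiftLeft_eq, hred i (mem_range.1 hi), pow_mul, two_pow_1248]
  have h13 : ∀ i j, (U i j % 13) < X := by
    intro i j
    have := Nat.mod_lt (U i j) (by norm_num : 13 > 0)
    have h' : (13 : ℕ) ≤ X := by norm_num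
    omega
  have hr : rowOf (mmul A B) i = ∑ j ∈ range 78, (U i j % 13) * X ^ j := by
    rw [rowOf_eq, hmm]
    exact dgen (X ^ 78) (by positivity) 78 (fun i => ∑ j ∈ range 78, (U i j % 13) * X ^ j) i
      (fun j _ => sum_lt_pow 78 _ (fun k _ => h13 j k)) hi
  rw [ent_eq' _ _ _ hj, hr]
  exact dgen X (by norm_num) 78 (fun j => U i j % 13) j (fun k _ => h13 i k) hj

/-- `N` stores the matrix `m`, with all entries reduced. -/
def Rep (N : ℕ) (m : Matrix (Fin 78) (Fin 78) (ZMod 13)) : Prop := Bdd N ∧ Mat N = m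

theorem Rep.mul {A B : ℕ} {a b : Matrix (Fin 78) (Fin 78) (ZMod 13)} (hA : Rep A a) (hB : Rep B b) :
    Rep (mmul A B) (a * b) := by
  refine ⟨fun i j hi hj => ?_, ?_⟩
  · rw [ent_mmul hA.1 hB.1 i j hi hj]
    exact Nat.mod_lt _ (by norm_num)
  · rw [← hA.2, ← hB.2]
    ext i j
    have h := ent_mmul hA.1 hB.1 i j i.2 j.2
    show ((ent (mmul A B) i j : ℕ) : ZMod 13) = _
    rw [h, ZMod.natCast_mod, Matrix.mul_apply, Nat.cast_sum,
      ← Fin.sum_univ_eq_sum_range (fun k => ((ent A i k * ent B k j : ℕ) : ZMod 13)) 78]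
    apply sum_congr rfl
    intro k _
    rw [Nat.cast_mul]
    rfl

/-- The identity matrix. -/
noncomputable def idN : ℕ := sumB (fun i => Nat.shiftLeft 1 (Nat.mul 16 (Nat.add (Nat.mul 78 i) i))) 78

theorem idN_chk : allBelow (fun i => allBelow (fun j =>
    Nat.beq (ent idN i j) (bif Nat.beq i j then 1 else 0)) 78) 78 = true := by
  decide +kernel

theorem rep_id : Rep idN 1 := by
  have h := (allBelow_iff _ _).1 idN_chk
  have h' : ∀ i j, i < 78 → j < 78 → ent idN i j = bif Nat.beq i j then 1 else 0 := by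
    intro i j hi hj
    exact Nat.eq_of_beq_eq_true ((allBelow_iff _ _).1 (h i hi) j hj)
  refine ⟨fun i j hi hj => ?_, ?_⟩
  · rw [h' i j hi hj]
    cases Nat.beq i j <;> simp
  · ext i j
    show ((ent idN i j : ℕ) : ZMod 13) = _
    rw [h' i j i.2 j.2, Matrix.one_apply]
    by_cases hij : i = j
    · subst hij
      simp
    · have h2 : (i : ℕ) ≠ j := fun h => hij (Fin.ext h)
      have h3 : Nat.beq (i : ℕ) j = false := by
        rw [← Bool.not_eq_true]
        intro h4
        exact h2 (Nat.eq_of_beq_eq_true h4)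
      rw [h3, if_neg hij]
      simp

/-- Iterated product. -/
noncomputable def mpow (N k : ℕ) : ℕ := Nat.rec idN (fun _ ih => mmul ih N) k

theorem Rep.pow {N : ℕ} {m : Matrix (Fin 78) (Fin 78) (ZMod 13)} (h : Rep N m) (k : ℕ) :
    Rep (mpow N k) (m ^ k) := by
  induction k with
  | zero =>
    rw [pow_zero]
    exact rep_id
  | succ k ih =>
    rw [pow_succ]
    exact ih.mul h

theorem Rep.eq_one {N : ℕ} {m : Matrix (Fin 78) (Fin 78) (ZMod 13)} (h : Rep N m) (e : N = idN) : m = 1 := by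
  subst e
  rw [← h.2, rep_id.2]

/-- A check that all entries are reduced. -/
noncomputable def bddChk (N : ℕ) : Bool :=
  allBelow (fun i => allBelow (fun j => Nat.ble (ent N i j) 12) 78) 78

theorem rep_of_chk {N : ℕ} (h : bddChk N = true) : Rep N (Mat N) := by
  refine ⟨fun i j hi hj => ?_, rfl⟩
  have h1 := (allBelow_iff _ _).1 ((allBelow_iff _ _).1 h i hi) j hj
  have h2 := Nat.le_of_ble_eq_true h1
  omega

end Cfsg.Agent.Lib.Fi22Rep
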