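import Cfsg.Agent.Lib.Fi22Rep.Data
import Cfsg.Prelude.Def_Sporadic

/-! The 78-dimensional representation of the presented group `Fi₂₂` over `ZMod 13`. -/

set_option autoImplicit false
set_option maxRecDepth 100000

namespace Cfsg.Agent.Lib.Fi22Rep

open Cfsg.Agent.Lib.Compute Cfsg.Spor

/-- All the generators. -/
def allG : List Fi22.Gen := [.a, .b, .c, .d, .e, .f, .g, .h, .i]

theorem mem_allG (x : Fi22.Gen) : x ∈ allG := by
  cases x <;> simp [allG]

theorem bdd_all : allG.all (fun x => bddChk (gM x)) = true := by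
  decide +kernel

theorem rep_gM (x : Fi22.Gen) : Rep (gM x) (Mat (gM x)) :=
  rep_of_chk (List.all_eq_true.1 bdd_all x (mem_allG x))

theorem pairs_chk : allG.all (fun x => allG.all fun y =>
    Nat.beq (mpow (mmul (gM x) (gM y)) (coxLabel Fi22.edges x y)) idN) = true := by
  decide +kernel

theorem pair_rel (x y : Fi22.Gen) :
    (Mat (gM x) * Mat (gM y)) ^ coxLabel Fi22.edges x y = 1 :=
  (((rep_gM x).mul (rep_gM y)).pow _).eq_one
    (Nat.eq_of_beq_eq_true (List.all_eq_true.1 (List.all_eq_true.1 pairs_chk x (mem_allG x)) y (mem_allG y)))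

theorem coxLabel_self (x : Fi22.Gen) : coxLabel Fi22.edges x x = 1 := by
  simp [coxLabel]

theorem sq_one (x : Fi22.Gen) : Mat (gM x) * Mat (gM x) = 1 := by
  have h := pair_rel x x
  rwa [coxLabel_self, pow_one] at h

/-- The images of the generators. -/
noncomputable def gU (x : Fi22.Gen) : Matrix.GeneralLinearGroup (Fin 78) (ZMod 13) :=
  ⟨Mat (gM x), Mat (gM x), sq_one x, sq_one x⟩

theorem gU_val (x : Fi22.Gen) : (gU x).val = Mat (gM x) := rfl

/-- First further relator, without the power. -/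
noncomputable def w1 : ℕ :=
  mmul (mmul (mmul (mmul (mmul (mmul (mmul (mmul (gM .d) (gM .c)) (gM .b)) (gM .d)) (gM .e)) (gM .f)) (gM .d)) (gM .h)) (gM .i)
/-- Second further relator, without the power. -/
noncomputable def w2 : ℕ :=
  mmul (mmul (mmul (mmul (mmul (mmul (gM .a) (gM .b)) (gM .c)) (gM .d)) (gM .e)) (gM .f)) (gM .h)
/-- Third further relator, without the power. -/
noncomputable def w3 : ℕ :=
  mmul (mmul (mmul (mmul (mmul (mmul (gM .b) (gM .c)) (gM .d)) (gM .e)) (gM .f)) (gM .g)) (gM .h)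

theorem x1 : mpow w1 10 = idN := by decide +kernel
theorem x2 : mpow w2 9 = idN := by decide +kernel
theorem x3 : mpow w3 9 = idN := by decide +kernel

theorem ex1 : (Mat (gM .d) * Mat (gM .c) * Mat (gM .b) * Mat (gM .d) * Mat (gM .e) * Mat (gM .f) *
    Mat (gM .d) * Mat (gM .h) * Mat (gM .i)) ^ 10 = 1 :=
  (((((((((rep_gM .d).mul (rep_gM .c)).mul (rep_gM .b)).mul (rep_gM .d)).mul (rep_gM .e)).mul
    (rep_gM .f)).mul (rep_gM .d)).mul (rep_gM .h)).mul (rep_gM .i)).pow 10 |>.eq_one x1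

theorem ex2 : (Mat (gM .a) * Mat (gM .b) * Mat (gM .c) * Mat (gM .d) * Mat (gM .e) * Mat (gM .f) *
    Mat (gM .h)) ^ 9 = 1 :=
  (((((((rep_gM .a).mul (rep_gM .b)).mul (rep_gM .c)).mul (rep_gM .d)).mul (rep_gM .e)).mul
    (rep_gM .f)).mul (rep_gM .h)).pow 9 |>.eq_one x2

theorem ex3 : (Mat (gM .b) * Mat (gM .c) * Mat (gM .d) * Mat (gM .e) * Mat (gM .f) * Mat (gM .g) *
    Mat (gM .h)) ^ 9 = 1 :=
  (((((((rep_gM .b).mul (rep_gM .c)).mul (rep_gM .d)).mul (rep_gM .e)).mul (rep_gM .f)).mul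
    (rep_gM .g)).mul (rep_gM .h)).pow 9 |>.eq_one x3

theorem rels_ok (r : FreeGroup Fi22.Gen)
    (hr : r ∈ coxRelators Fi22.edges ∪ {r | r ∈ Fi22.extra}) : FreeGroup.lift gU r = 1 := by
  rcases hr with ⟨x, _, y, _, rfl⟩ | hr
  · apply Units.ext
    rw [map_pow, map_mul, FreeGroup.lift_apply_of, FreeGroup.lift_apply_of, Units.val_pow_eq_pow_val,
      Units.val_mul, gU_val, gU_val, pair_rel, Units.val_one]
  · simp only [Fi22.extra, Set.mem_setOf_eq, List.mem_cons, List.not_mem_nil, or_false] at hr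
    rcases hr with rfl | rfl | rfl
    · apply Units.ext
      simp only [map_pow, map_mul, FreeGroup.lift_apply_of, Units.val_pow_eq_pow_val, Units.val_mul, gU_val,
        Units.val_one]
      exact ex1
    · apply Units.ext
      simp only [map_pow, map_mul, FreeGroup.lift_apply_of, Units.val_pow_eq_pow_val, Units.val_mul, gU_val,
        Units.val_one]
      exact ex2
    · apply Units.ext
      simp only [map_pow, map_mul, FreeGroup.lift_apply_of, Units.val_pow_eq_pow_val, Units.val_mul, gU_val,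
        Units.val_one]
      exact ex3

/-- The representation. -/
noncomputable def rho : Fi22 →* Matrix.GeneralLinearGroup (Fin 78) (ZMod 13) :=
  PresentedGroup.toGroup (f := gU) rels_ok

theorem ent_d : ent (gM .d) 0 1 = 1 := by decide +kernel

theorem main (hs : IsSimpleGroup Fi22) :
    ∃ f : Fi22 →* Matrix.GeneralLinearGroup (Fin 78) (ZMod 13), Function.Injective f := by
  refine ⟨rho, ?_⟩
  rcases hs.eq_bot_or_eq_top_of_normal rho.ker inferInstance with h | h
  · exact (MonoidHom.ker_eq_bot_iff _).1 h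
  · exfalso
    have h1 : (PresentedGroup.of Fi22.Gen.d : Fi22) ∈ rho.ker := by
      rw [h]
      trivial
    have h2 : gU .d = 1 := by
      have h3 := (MonoidHom.mem_ker).1 h1
      rwa [rho, PresentedGroup.toGroup.of] at h3
    have h3 : Mat (gM .d) = 1 := congrArg Units.val h2
    have h4 := congrFun (congrFun h3 (⟨0, by norm_num⟩ : Fin 78)) (⟨1, by norm_num⟩ : Fin 78)
    have h5 : Mat (gM .d) ⟨0, by norm_num⟩ ⟨1, by norm_num⟩ = ((ent (gM .d) 0 1 : ℕ) : ZMod 13) := rfl
    rw [h5, ent_d, Matrix.one_apply_ne (by simp [Fin.ext_iff])] at h4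
    exact absurd h4 (by decide)

end Cfsg.Agent.Lib.Fi22Rep
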